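import Cfsg.Agent.Comp.Lin
import Cfsg.Agent.Comp.G22.Main

set_option autoImplicit false
set_option maxRecDepth 100000
set_option Elab.async false

namespace Cfsg.Agent.Comp.G22

noncomputable def O : FOps := zOps 2
noncomputable def S : VL := ⟨nat_lit 14, nat_lit 1, nat_lit 1⟩
noncomputable def vs : ℕ := nat_lit 0x3dbdf403cfaf12fbdfeddba80e8977eedddf6f9d9b3182c42f085c002fbbbe0aeefbb7abf9af52aa5aa02555952245d912210d84020058001fd57e09f6d7cf9df776e1d4b74012bb4a9123f489108f420100b40001fa07d818e060815c055010804000bc02e0084020000c0020004
noncomputable def P : VT := ⟨J.n, vs, nat_lit 14, nat_lit 16383⟩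
noncomputable def A0 : ℕ := nat_lit 0x800100020004000800100420004020804100422006000a001
noncomputable def A1 : ℕ := nat_lit 0x80010002000400080210002008400080210402c0844009001
noncomputable def A2 : ℕ := nat_lit 0x8001000200240048001000202040408081191212242008001
noncomputable def A3 : ℕ := nat_lit 0x8001000a0004008800100aa00140108c11000201541008401
noncomputable def A4 : ℕ := nat_lit 0x800100060014000801d000200242028009002e00040008201
noncomputable def A5 : ℕ := nat_lit 0x80030002000400180010006040400180010002000c0408001
noncomputable def A6 : ℕ := nat_lit 0xc001000200060008001810200060008001000300040208001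
noncomputable def A7 : ℕ := nat_lit 0x8001d002400500090810002e004000a001800200040008041
noncomputable def A8 : ℕ := nat_lit 0xaa0100022004230a001540200044008001400200040088021
noncomputable def A9 : ℕ := nat_lit 0x9121224204440808101000200048009001000200040048001
noncomputable def A10 : ℕ := nat_lit 0x840100b210040008401000210040008001000200040028009
noncomputable def A11 : ℕ := nat_lit 0x8019080208041008001080200040008001000200040008005
noncomputable def As : List ℕ := [A0, A1, A2, A3, A4, A5, A6, A7, A8, A9, A10, A11]
noncomputable def Q : ℕ := nat_lit 0x4000100e7770cd17c401000100cf03c00fe00080010150356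
theorem hl : layChk S P = true := by decide +kernel
theorem p_0 : allR (ptChk O.q S P) 0 63 = true := by decide +kernel
theorem hp : ∀ i, i < J.n → ptChk O.q S P i = true := (range_step (lo := 0) 63 range_start p_0)
theorem hc : linChk O S J P Q = true := by decide +kernel
theorem a_0 : allR (actAll O S J P As) 0 56 = true := by decide +kernel
theorem a_1 : allR (actAll O S J P As) 56 7 = true := by decide +kernel
theorem ha : ∀ i, i < J.n → actAll O S J P As i = true := (range_step (lo := 56) 7 (range_step (lo := 0) 56 range_start a_0) a_1)
theorem model {F ι : Type*} [CommRing F] [Fintype ι] [DecidableEq ι] {dec : ℕ → F} (h : O.Sem dec)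
    (σ : ι ≃ Fin S.d) (gen : ℕ → GL ι F)
    (hgen : ∀ j, j < J.m0 → (gen j : Matrix ι ι F) = mat dec S σ (nth As j)) :
    J.Model (vecLst h σ hl hp) gen ⊤ := gl_model' h σ hl hp hc ha gen hgen

end Cfsg.Agent.Comp.G22
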