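import Cfsg.Agent.Comp.G22.Gen

/-! The group `G₂(2)`: order and element orders. -/

set_option autoImplicit false
set_option maxRecDepth 100000

namespace Cfsg.Agent.Comp.G22

open Cfsg.Agent.Spec Cfsg.Lie

noncomputable section

variable {F : Type*} [Field F]

theorem hd : chevG2.rank + chevG2.nroots = S.d := rfl

theorem sem [CharP F 2] : O.Sem (fun a => (a : F)) where
  add a b := Nat.cast_add a b
  mul a b := Nat.cast_mul a b
  nf a := (CharP.cast_eq_mod F 2 a).symm
  zero := Nat.cast_zero
  one := Nat.cast_one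
  inj _ _ ha hb e := CharP.natCast_injOn_Iio F 2 ha hb e

def gens (dec : ℕ → F) : ℕ → GL chevG2.Idx F := glGens dec S (idxEquiv chevG2 hd) As As

theorem mdl {dec : ℕ → F} (h : O.Sem dec) :
    J.Model (vecLst h (idxEquiv chevG2 hd) hl hp) (gens dec) ⊤ :=
  model h _ _ (glGens_val h _ inv1)

theorem x_eq [CharP F 2] {dec : ℕ → F} (h : O.Sem dec) (r : Fin chevG2.nroots) {t : ℕ} (ht : t < 2) :
    chevG2.xMat F r (dec t) = mat dec S (idxEquiv chevG2 hd) (Xc r.1 t) := by
  have := xTab_spec h (ic2_spec h) hd (all1_spec xt r.1 (Nat.zero_le _)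
    (by have : r.1 < 12 := r.2; omega)) ht
  unfold ChevalleyDatum.x at this
  rwa [dif_pos r.2] at this

theorem gens_eq [CharP F 2] {dec : ℕ → F} (h : O.Sem dec) (r : Fin chevG2.nroots) :
    (gens dec r.1 : Matrix chevG2.Idx chevG2.Idx F) = chevG2.xMat F r (dec 1) := by
  have hr : r.1 < 12 := r.2
  rw [x_eq h r (by omega), ← beq_true.1 (all1_spec As_eq r.1 (Nat.zero_le _) (by omega))]
  exact glGens_val h _ inv1 r.1 hr

theorem G_eq [Fintype F] (hF : Fintype.card F = 2) [CharP F 2] {dec : ℕ → F} (h : O.Sem dec) :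
    J.G (gens dec) = chevG2.group F := by
  apply le_antisymm
  · apply Subgroup.closure_mono
    rintro _ ⟨j, hj, rfl⟩
    exact ⟨⟨j, hj⟩, dec 1, gens_eq h ⟨j, hj⟩⟩
  · apply (Subgroup.closure_le _).2
    rintro g ⟨r, t, hg⟩
    obtain ⟨a, ha, rfl⟩ := h.surj hF t
    have ha' : a < 2 := ha
    have hr : r.1 < 12 := r.2
    interval_cases a
    · have hc := hc
      unfold linChk at hc
      simp only [band_true] at hc
      rw [x_eq h r (by omega), beq_true.1 (all1_spec X0 r.1 (Nat.zero_le _) (by omega))] at hg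
      have : g = 1 := Units.ext (mat_eq_one_of_fix h _ hc.1 _ fun b hb => by
        rw [hg]; exact mvChk_spec h _ (allL_spec X2 b hb))
      rw [this]
      exact Subgroup.one_mem _
    · exact Subgroup.subset_closure ⟨r.1, hr, Units.ext ((gens_eq h r).trans hg.symm)⟩

theorem card_G22 [Fintype F] (hF : Fintype.card F = 2) : Nat.card (chevG2.group F) = 12096 := by
  have hc : CharP F 2 := charP_two_of_card (e := 1) hF
  rw [← G_eq hF sem]
  exact card (mdl sem)

theorem spec_G22 [Fintype F] (hF : Fintype.card F = 2) :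
    Set.range (orderOf : chevG2.group F → ℕ) = {n | n ∈ [1, 2, 3, 4, 6, 7, 8, 12]} := by
  have hc : CharP F 2 := charP_two_of_card (e := 1) hF
  rw [← G_eq hF sem]
  exact spec (mdl sem)

end

end Cfsg.Agent.Comp.G22
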